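import Cfsg.Agent.H325.IsoRgd
import Cfsg.Agent.KFacts.RgdFiltTwAll
import Cfsg.Agent.Mrg.ParSys.RootExc
import Cfsg.Agent.ChevalleyStructure.FixedCard
import Cfsg.Agent.Nodes.RGDTwCoordE6
import Cfsg.Agent.Nodes.RGDTwComE6
import Cfsg.Agent.Nodes.RGDTwActE6
import Cfsg.Agent.KFacts.TwESix.Comb
import Cfsg.Agent.S1070
import Cfsg.Agent.S1055

/-!
# `²E₆(2)`: no 2-local subgroup has order divisible by `11 · 17` (helper142)
-/

set_option autoImplicit false
set_option linter.unusedSectionVars false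

namespace Cfsg.Agent.H142.Der.Loc

open CoxeterSystem Cfsg.Agent.ChevalleyStructure.CoxeterGeom Cfsg.Agent.Tits.Roots Cfsg.Agent.Tits.Core
  Cfsg.Agent.Tits.RootComb Cfsg.Agent.Nodes.Comb Cfsg.Agent.Nodes.Reps Cfsg.Agent.Nodes.BNOf
  Cfsg.Agent.Nodes.StabComb Cfsg.Agent.Nodes.Bruhat Cfsg.Agent.Nodes.LeviDec Cfsg.Agent.Nodes.NormalForm
  Cfsg.Agent.ParSys Cfsg.Agent.ParSys.RootCount Cfsg.Agent.Tits.Exchange
  Cfsg.Agent.Omega.EH3Close.CountU
open Cfsg.Agent.H325.Loc Cfsg.Agent.H325.IsoRgd Cfsg.Agent.KFacts.RgdFilt Cfsg.Agent.H138.SqBase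
open Subgroup (normalizer)

section Abs

variable {I W Y : Type*} [Fintype I] [DecidableEq I] [Group W] [Group Y] {M : CoxeterMatrix I}
  {cs : CoxeterSystem M W} {A : I → I → ℤ} {h : IsCartan M A} {p : ℕ} {T : Subgroup Y} {n : I → Y}
  {X : (I → ℤ) → Subgroup Y}

/-- a parabolic subgroup containing a prime divisor -/
theorem exists_conn [Finite W] [Finite Y] [Fact p.Prime] (R : RGD cs h p T n X) {u : ℕ} (hu : u.Prime) (hup : u ≠ p)
    (hT : ¬ u ∣ Nat.card T) {P : Subgroup Y} {g : Y} {K : Set I} (hle : cj g P ≤ PJ cs h T X K)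
    (hd : u ∣ Nat.card P) : ∃ J : Finset I, (J : Set I) ⊆ K ∧ J.Nonempty ∧
      (u : ℤ) ∣ (Nat.card (RGD.Sup X (PosJ cs h (J : Set I))) : ℤ) - (-1) ^ J.card := by
  classical
  have hB : ¬ u ∣ Nat.card (RGD.B cs h T X) := by
    rw [← H396.Crit.card_B R]
    intro h1
    rcases hu.dvd_mul.1 h1 with h2 | h2
    · exact hT h2
    · obtain ⟨k, hk⟩ := (IsPGroup.iff_card).1 R.isPGroup_Upos
      rw [hk] at h2
      exact hup ((Nat.prime_dvd_prime_iff_eq hu Fact.out).1 (hu.dvd_of_dvd_pow h2))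
  have h1 : Nat.card (cj g P) = Nat.card P := Nat.card_congr
    (Subgroup.equivMapOfInjective P (MulAut.conj g).toMonoidHom (MulAut.conj g).injective).toEquiv.symm
  have h2 : u ∣ Nat.card (PJ cs h T X ((Set.toFinset K : Finset I) : Set I)) := by
    rw [Set.coe_toFinset]
    rw [← h1] at hd
    exact hd.trans (Subgroup.card_dvd_of_le hle)
  obtain ⟨J, hJK, hne, -, hdvd⟩ := H396.Crit.exists_dvd R hu hB h2
  exact ⟨J, fun i hi => Set.mem_toFinset.1 (hJK (Finset.mem_coe.1 hi)), hne, hdvd⟩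

/-- **Two primes.** -/
theorem not_both_of_rgd [Finite W] [Finite Y] [Fact p.Prime] [IsSimpleGroup Y] (hc : ∃ a b : Y, a * b ≠ b * a)
    (hF : HasFilt p Y) (R : RGD cs h p T n X) (hG : Nodes.RGDLib.G1 cs h X = ⊤)
    {u w : ℕ} (hu : u.Prime) (hw : w.Prime) (hup : u ≠ p) (hwp : w ≠ p) (hTu : ¬ u ∣ Nat.card T)
    (hTw : ¬ w ∣ Nat.card T)
    (hJ : ∀ J J' : Finset I, J.Nonempty → J'.Nonempty →
      (u : ℤ) ∣ (Nat.card (RGD.Sup X (PosJ cs h (J : Set I))) : ℤ) - (-1) ^ J.card →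
      (w : ℤ) ∣ (Nat.card (RGD.Sup X (PosJ cs h (J' : Set I))) : ℤ) - (-1) ^ J'.card → J ∪ J' = Finset.univ)
    (Q : Subgroup Y) (hQ : IsPGroup p Q) (hQ1 : Q ≠ ⊥) :
    ¬ (u ∣ Nat.card (normalizer (Q : Set Y)) ∧ w ∣ Nat.card (normalizer (Q : Set Y))) := by
  rintro ⟨hdu, hdw⟩
  obtain ⟨V, hV, hQV, hle, S, hS⟩ := H772.Pearl.exists_par_sylow hF hc hQ hQ1
  have hP : normalizer (V : Set Y) ≠ ⊤ := by
    intro h0
    have hVn : V.Normal := Subgroup.normalizer_eq_top_iff.1 h0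
    rcases hVn.eq_bot_or_eq_top with h1 | h1
    · rw [h1, le_bot_iff] at hQV
      exact hQ1 hQV
    · rw [h1] at hV
      have hY : IsPGroup p Y := hV.of_equiv Subgroup.topEquiv
      have hnt : Nontrivial Y := inferInstance
      have h2 : Nontrivial (Subgroup.center Y) := hY.center_nontrivial
      rcases (inferInstance : (Subgroup.center Y).Normal).eq_bot_or_eq_top with h3 | h3
      · rw [h3] at h2
        exact not_nontrivial _ h2
      · obtain ⟨a, b, hab⟩ := hc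
        apply hab
        have : a ∈ Subgroup.center Y := by rw [h3]; trivial
        exact ((Subgroup.mem_center_iff.1 this) b).symm
  have hidx : ¬ p ∣ (normalizer (V : Set Y)).index := by
    intro h1
    exact S.not_dvd_index (h1.trans (Subgroup.index_dvd_of_le hS))
  obtain ⟨g, K, hK, hle'⟩ := Cfsg.Agent.H325.IsoRgd.exists_le_PJ R hG _ hP hidx
  obtain ⟨J, h1, h2, h3⟩ := exists_conn R hu hup hTu hle' (hdu.trans (Subgroup.card_dvd_of_le hle))
  obtain ⟨J', h1', h2', h3'⟩ := exists_conn R hw hwp hTw hle' (hdw.trans (Subgroup.card_dvd_of_le hle))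
  apply hK
  have h4 := hJ J J' h2 h2' h3 h3'
  rw [Set.eq_univ_iff_forall]
  intro i
  have h5 : i ∈ J ∪ J' := by rw [h4]; exact Finset.mem_univ i
  rcases Finset.mem_union.1 h5 with h6 | h6
  · exact h1 (Finset.mem_coe.2 h6)
  · exact h1' (Finset.mem_coe.2 h6)

end Abs

section Tab

variable {k : ℕ} {W Y : Type*} [Group W] [Group Y] {M : CoxeterMatrix (Fin k)}
  {cs : CoxeterSystem M W} {A : Fin k → Fin k → ℤ} {h : IsCartan M A} {p : ℕ} {T : Subgroup Y} {n : Fin k → Y}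
  {X : (Fin k → ℤ) → Subgroup Y}

/-- the orders of the `U_J` -/
theorem card_U_tab [Finite W] [Finite Y] (R : RGD cs h p T n X)
    {L : List (Fin k → ℤ)} (hR : PosRoots A L.toFinset) (hN : L.Nodup) {len : (Fin k → ℤ) → ℕ}
    (hlen : ∀ i, ∀ v ∈ L, v ≠ Pi.single i 1 → len (refl A i v) = len v)
    {q : ℕ} (hq : ∀ i, Nat.card (X (sr i)) = q ^ len (Pi.single i 1))
    {Tb : List (ℕ × ℕ)} (hTb : (L.map fun v => (supp v, len v)) = Tb) (J : Finset (Fin k)) :
    Nat.card (RGD.Sup X (PosJ cs h (J : Set (Fin k)))) = q ^ H138.SqBase.NN Tb (mJ J) := by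
  classical
  rw [card_UJ R hR (wt := fun v => q ^ len v) (fun i v hv hne => by
    rw [hlen i v (List.mem_toFinset.1 hv) hne]) hq (J : Set (Fin k))]
  have e1 : (L.toFinset.filter fun v => ∀ i, i ∉ (J : Set (Fin k)) → v i = 0) =
      (L.filter fun v => supp v &&& mJ J == supp v).toFinset := by
    ext v
    rw [Finset.mem_filter, List.mem_toFinset, List.mem_toFinset, List.mem_filter, beq_iff_eq, supp_land]
  rw [e1, List.prod_toFinset _ (hN.filter _)]
  unfold H138.SqBase.NN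
  rw [← hTb]
  have e2 : ∀ L' : List (Fin k → ℤ), (L'.map fun v => q ^ len v).prod = q ^ (L'.map len).sum := by
    intro L'
    induction L' with
    | nil => simp
    | cons a L' ih => rw [List.map_cons, List.prod_cons, ih, List.map_cons, List.sum_cons, pow_add]
  rw [e2, List.filter_map, List.map_map]
  rfl

end Tab

theorem card_of_mem {Y α : Type*} [Group Y] {S : Subgroup Y} (f : α → Y) (hinj : Function.Injective f)
    (hmem : ∀ g, g ∈ S ↔ ∃ a, f a = g) : Nat.card S = Nat.card α := by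
  refine (Nat.card_congr (Equiv.ofBijective (fun a => (⟨f a, (hmem _).2 ⟨a, rfl⟩⟩ : S)) ⟨?_, ?_⟩)).symm
  · intro a b h
    exact hinj (congrArg Subtype.val h)
  · rintro ⟨g, hg⟩
    obtain ⟨a, ha⟩ := (hmem g).1 hg
    exact ⟨a, Subtype.ext ha⟩

/-- the length: `1` for the long roots -/
def lenE (v : Fin 4 → ℤ) : ℕ := if v 2 % 2 = 0 ∧ v 3 % 2 = 0 then 1 else 2

/-- the table of supports and lengths -/
def tbE : List (ℕ × ℕ) := Cfsg.Agent.ParSys.RootExc.LF4.map fun v => (supp v, lenE v)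

theorem tab17 : ∀ J : Finset (Fin 4), J.Nonempty →
    (17 : ℤ) ∣ ((2 ^ H138.SqBase.NN tbE (mJ J) : ℕ) : ℤ) - (-1) ^ J.card → 0 ∈ J ∧ 1 ∈ J ∧ 2 ∈ J := by
  decide +kernel

theorem tab11 : ∀ J : Finset (Fin 4), J.Nonempty →
    (11 : ℤ) ∣ ((2 ^ H138.SqBase.NN tbE (mJ J) : ℕ) : ℤ) - (-1) ^ J.card → 3 ∈ J := by
  decide +kernel

section E6

open Cfsg.Lie
open Cfsg.Agent.Nodes Cfsg.Agent.Nodes.RGDLib Cfsg.Agent.Nodes.RGDChev
open Cfsg.Agent.ChevalleyStructure Cfsg.Agent.ChevalleyStructure.Elts Cfsg.Agent.ChevalleyStructure.NPerm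
  Cfsg.Agent.ChevalleyStructure.CoxeterGeomTypes
open Cfsg.Agent.ParSys.RootExc
open Cfsg.Agent.Nodes.RGDTwE6 Cfsg.Agent.Nodes.RGDTwCoordE6 Cfsg.Agent.Nodes.RGDTwCoord
  Cfsg.Agent.Nodes.RGDTwComE6 Cfsg.Agent.Nodes.RGDTwActE6 Cfsg.Agent.Nodes.RGDTwTab
  Cfsg.Agent.KFacts.TwESix.Comb

/-- the elements of the torus have order dividing `|K| - 1` -/
theorem diag_pow {D : ChevalleyDatum} {l : ℕ} {M : CoxeterMatrix (Fin l)} (hp : IsType D l M) (K : Type) [Field K]
    [Fintype K] {g : GL D.Idx K} (hg : g ∈ D.diagonalSubgroup K) : g ^ (Fintype.card K - 1) = 1 := by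
  obtain ⟨χ, hχ⟩ := HMatDiagAll.mem_torus.1 (HMatDiagAll.diagonalSubgroup_le_torus hp.inList hg)
  have hne : ∀ s, χ s ≠ 0 := by
    intro s h0
    have h1 := g.isUnit
    rw [hχ, Matrix.isUnit_iff_isUnit_det, Matrix.det_diagonal, isUnit_iff_ne_zero, Finset.prod_ne_zero_iff] at h1
    exact h1 (Sum.inr s) (Finset.mem_univ _) h0
  apply Units.ext
  rw [Units.val_pow_eq_pow_val, hχ, Matrix.diagonal_pow, Units.val_one, ← Matrix.diagonal_one]
  congr 1
  funext i
  rcases i with i | i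
  · exact one_pow _
  · exact FiniteField.pow_card_sub_one_eq_one _ (hne i)

theorem not_dvd_of_cube {Y : Type*} [Group Y] [Finite Y] {T : Subgroup Y} {u : ℕ} (hu : u.Prime) (hu3 : ¬ u ∣ 3)
    (h : ∀ t ∈ T, t ^ 3 = 1) : ¬ u ∣ Nat.card T := by
  intro hd
  have := Fact.mk hu
  obtain ⟨t, ht⟩ := exists_prime_orderOf_dvd_card' u hd
  apply hu3
  rw [← ht]
  exact orderOf_dvd_of_pow_eq_one (Subtype.ext (h t t.2))

variable {K : Type} [Field K] [Fintype K]

theorem not_both {p : ℕ} [Fact p.Prime] [CharP K p] {q : ℕ} (hq : IsPrimePow q) (hK : Fintype.card K = q ^ 2) (hq2 : q = 2) (hp2 : p = 2)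
    (Q : Subgroup ↥(twistedE6 K q)) (hQ : IsPGroup 2 Q) (hQ1 : Q ≠ ⊥) :
    ¬ (17 ∣ Nat.card (normalizer (Q : Set ↥(twistedE6 K q))) ∧
      11 ∣ Nat.card (normalizer (Q : Set ↥(twistedE6 K q)))) := by
  obtain ⟨φ, hφ, hqq⟩ := ChevalleyStructure.TwE6Basic.exists_frob hq hK
  have hfin : Finite ↥(twistedE6 K q) := inferInstance
  have hW : Finite CoxeterMatrix.F₄.Group := finiteW CoxeterMatrix.F₄.toCoxeterSystem
  have hs := Cfsg.Agent.S1070.result hq hK
  have hs1 := hs.1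
  have hc : ∃ a b : ↥(twistedE6 K q), a * b ≠ b * a := by
    by_contra hcon
    push Not at hcon
    exact hs.2 ⟨⟨hcon⟩⟩
  have hcards : ∀ i : Fin 4, Nat.card (RGDTwE6.X φ q (sr i)) = q ^ lenE (Pi.single i 1) := by
    intro i
    have hlong : ∀ i : Fin 4, Lg (sr i) → Nat.card (RGDTwE6.X φ q (sr i)) = q := by
      intro i hl
      have hr := isRoot_sr CoxeterMatrix.F₄.toCoxeterSystem RGDTwE6.isCartan i
      rw [card_of_mem (α := {x : K // x ^ q = x}) (fun t => RGDTwComE6.x φ q (sr i) t.1)]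
      · exact FixedCard.card_fixed hq.one_lt hK
      · intro a b hab
        refine Subtype.ext (RGDTwActE6.x_inj hφ hqq hr (ok_long hr hl ?_) (ok_long hr hl ?_) hab)
        · rw [hφ]; exact a.2
        · rw [hφ]; exact b.2
      · intro g
        rw [mem_X_long hφ hqq hr hl]
        constructor
        · rintro ⟨a, ha, rfl⟩
          rw [hφ] at ha
          exact ⟨⟨a, ha⟩, rfl⟩
        · rintro ⟨a, rfl⟩
          exact ⟨a.1, by rw [hφ]; exact a.2, rfl⟩
    have hshort : ∀ i : Fin 4, St (sr i) → Nat.card (RGDTwE6.X φ q (sr i)) = q ^ 2 := by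
      intro i hl
      have hr := isRoot_sr CoxeterMatrix.F₄.toCoxeterSystem RGDTwE6.isCartan i
      rw [card_of_mem (α := K) (fun t => RGDTwComE6.x φ q (sr i) t), Nat.card_eq_fintype_card, hK]
      · intro a b hab
        exact RGDTwActE6.x_inj hφ hqq hr (ok_short hφ hqq hr hl a) (ok_short hφ hqq hr hl b) hab
      · exact mem_X_short hφ hqq hr hl
    have t1 : ∀ i : Fin 4, (i = 0 ∨ i = 1) → Lg (sr i) ∧ lenE (Pi.single i 1) = 1 := by decide +kernel
    have t2 : ∀ i : Fin 4, ¬ (i = 0 ∨ i = 1) → St (sr i) ∧ lenE (Pi.single i 1) = 2 := by decide +kernel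
    by_cases hi : i = 0 ∨ i = 1
    · rw [(t1 i hi).2, pow_one]
      exact hlong i (t1 i hi).1
    · rw [(t2 i hi).2]
      exact hshort i (t2 i hi).1
  have R := RGDTwE6.rgd CoxeterMatrix.F₄.toCoxeterSystem hφ hqq p
  have hU := card_U_tab R (L := ParSys.RootExc.LF4) ParSys.RootExc.posRoots_F4 (by decide +kernel)
    (len := lenE) (by decide +kernel) (q := q) hcards (Tb := tbE) rfl
  have hF : HasFilt p ↥(twistedE6 K q) := Cfsg.Agent.KFacts.RgdFiltTwAll.hasFilt_E6 hq hK p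
  have hcube : ∀ t ∈ (chevE6.diagonalSubgroup K ⊓ twistedE6 K q).subgroupOf (twistedE6 K q), t ^ 3 = 1 := by
    intro t ht
    apply Subtype.ext
    have h3 : 3 = Fintype.card K - 1 := by rw [hK, hq2]; norm_num
    rw [SubgroupClass.coe_pow, h3]
    exact diag_pow RGDTwE6.hp K ht.1
  subst hp2
  refine not_both_of_rgd hc hF R (RGDTwE6.G1_eq_top CoxeterMatrix.F₄.toCoxeterSystem hφ hqq) (by norm_num) (by norm_num)
    (by norm_num) (by norm_num) ?_ ?_ ?_ Q hQ hQ1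
  · exact not_dvd_of_cube (by norm_num) (by norm_num) hcube
  · exact not_dvd_of_cube (by norm_num) (by norm_num) hcube
  · intro J J' hJ hJ' h1 h2
    rw [hU, hq2] at h1 h2
    obtain ⟨e0, e1, e2⟩ := tab17 J hJ h1
    have e3 := tab11 J' hJ' h2
    ext i
    simp only [Finset.mem_union, Finset.mem_univ, iff_true]
    fin_cases i
    · exact Or.inl e0
    · exact Or.inl e1
    · exact Or.inl e2
    · exact Or.inr e3

/-- **No 2-local subgroup of `²E₆(2)` has order divisible by `11 · 17`.** -/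
theorem loc (hK : Fintype.card K = 2 ^ 2) (Q : Subgroup ↥(twistedE6 K 2)) (hQ : IsPGroup 2 Q) (hQ1 : Q ≠ ⊥) :
    ¬ (17 ∣ Nat.card (normalizer (Q : Set ↥(twistedE6 K 2))) ∧
      11 ∣ Nat.card (normalizer (Q : Set ↥(twistedE6 K 2)))) := by
  have : Fact (Nat.Prime 2) := ⟨Nat.prime_two⟩
  have hch : CharP K 2 := charP_of_card_eq_prime_pow hK
  exact not_both (p := 2) Nat.prime_two.isPrimePow hK rfl rfl Q hQ hQ1

end E6

end Cfsg.Agent.H142.Der.Loc
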